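import Mathlib
import Cfsg.Agent.S0907
import Cfsg.Agent.S0914
import Cfsg.Agent.Lib.Block.Apps
import Cfsg.Agent.Lib.StChar.Split

/-!
Characters of defect zero vanish on singular elements; the case of the Steinberg character.
-/

set_option autoImplicit false

namespace H62

open Cfsg

theorem eq_zero_of_defect_zero {G : Type*} [Group G] [Finite G] {χ : G → ℂ}
    (h : IsIrrCharacter G χ) (p : ℕ) [Fact p.Prime] (hd : ¬ p ∣ Nat.card G / charDegree χ) {g : G}
    (hg : p ∣ orderOf g) : χ g = 0 := by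
  obtain ⟨M, hM⟩ := H33.exists_isPModular p
  have h1 := (Cfsg.Agent.S0914.result p M hM ⟨χ, h⟩).1 hd
  have h2 := Cfsg.Agent.S0907.result p M hM _ ⟨⟨χ, h⟩, rfl⟩ 1 g
    (by simpa using (Fact.out : p.Prime).one_lt.ne') hg
  rw [h1, finsum_mem_singleton] at h2
  obtain ⟨n, hn, h3⟩ := H6.irr_one_pos h
  simp only [h3, mul_eq_zero, Nat.cast_eq_zero, hn.ne', false_or, map_eq_zero] at h2
  exact h2

theorem St.Split.stein_eq_zero_of_dvd {G : Type*} [Group G] [Fintype G] {P : BNPair G} {p : ℕ}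
    [Fact p.Prime] {U : Subgroup G} (hS : St.Split P p U) {n₀ : G} (hn : n₀ ∈ P.N)
    (h₀ : ∀ u ∈ U, n₀⁻¹ * u * n₀ ∈ P.B → u = 1) {g : G} (hg : p ∣ orderOf g) :
    St.stein P g = 0 := by
  refine eq_zero_of_defect_zero St.isIrr_stein p ?_ hg
  have : charDegree (St.stein P) = Nat.card U := by
    simp [charDegree, hS.stein_one hn h₀]
  rw [this, ← U.index_mul_card, Nat.mul_div_cancel _ Nat.card_pos]
  exact hS.not_dvd_index

end H62
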